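import Cfsg.Agent.H63.AnDefs2

/-!
# Piece I4 of project AN: the four-group in the centraliser of `Alt({a,b}ᶜ)`
-/

set_option autoImplicit false

namespace Cfsg.Agent.H31.AnI4

open Cfsg Cfsg.Agent.H63 Cfsg.Agent.H63.AN Subgroup
open Cfsg.Agent.H7.AA (ev d2 Acts KA NA)
open Cfsg.Agent.H78 (c3 altOn symOn)
open Equiv (swap Perm)
open Equiv.Perm (sign IsSwap)

universe u

section P
variable {α : Type} [DecidableEq α]

theorem cm_of {a b c d : α} (h1 : a ≠ c) (h2 : a ≠ d) (h3 : b ≠ c) (h4 : b ≠ d) :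
    Commute (swap a b) (swap c d) := by
  change swap a b * swap c d = swap c d * swap a b
  rw [Equiv.mul_swap_eq_swap_mul, Equiv.swap_apply_of_ne_of_ne h1.symm h3.symm,
    Equiv.swap_apply_of_ne_of_ne h2.symm h4.symm]

theorem eq_of {a b d : α} (hab : a ≠ b) (had : a ≠ d) (h : Commute (swap a b) (swap a d)) :
    b = d := by
  by_contra e
  have := DFunLike.congr_fun h.eq a
  rw [Equiv.Perm.mul_apply, Equiv.Perm.mul_apply, Equiv.swap_apply_left, Equiv.swap_apply_left,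
    Equiv.swap_apply_of_ne_of_ne had.symm (Ne.symm e),
    Equiv.swap_apply_of_ne_of_ne hab.symm e] at this
  exact e this.symm

theorem nd {a b c d : α} (hab : a ≠ b) (hcd : c ≠ d) (h : Commute (swap a b) (swap c d))
    (ne : swap a b ≠ swap c d) : a ≠ c ∧ a ≠ d ∧ b ≠ c ∧ b ≠ d := by
  refine ⟨?_, ?_, ?_, ?_⟩ <;> rintro rfl
  · exact ne (by rw [eq_of hab hcd h])
  · rw [Equiv.swap_comm c] at h ne
    exact ne (by rw [eq_of hab hcd.symm h])
  · rw [Equiv.swap_comm a] at h ne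
    exact ne (by rw [eq_of hab.symm hcd h])
  · rw [Equiv.swap_comm a, Equiv.swap_comm c] at h ne
    exact ne (by rw [eq_of hab.symm hcd.symm h])

theorem ne_of {a b c d : α} (hab : a ≠ b) (h1 : a ≠ c) (h2 : a ≠ d) : swap a b ≠ swap c d :=
  fun e => by
    have := DFunLike.congr_fun e a
    rw [Equiv.swap_apply_left, Equiv.swap_apply_of_ne_of_ne h1 h2] at this
    exact hab this.symm

theorem key {b1 b2 g e : Perm α} (h1 : IsSwap b1) (h2 : IsSwap b2) (hg : IsSwap g)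
    (he : IsSwap e) (c12 : Commute b1 b2) (n12 : b1 ≠ b2) (c1 : Commute g b1) (n1 : g ≠ b1)
    (c2 : Commute g b2) (n2 : g ≠ b2) (e1 : ¬ Commute e b1) (e2 : ¬ Commute e b2) :
    Commute e g := by
  obtain ⟨x, y, hxy, rfl⟩ := h1
  obtain ⟨z, w, hzw, rfl⟩ := h2
  obtain ⟨r, s, hrs, rfl⟩ := hg
  obtain ⟨p, q, -, rfl⟩ := he
  obtain ⟨a1, a2, a3, a4⟩ := nd hxy hzw c12 n12
  obtain ⟨b1, b2, b3, b4⟩ := nd hrs hxy c1 n1
  obtain ⟨d1, d2, d3, d4⟩ := nd hrs hzw c2 n2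
  have k : ∀ {p q u v : α}, ¬ Commute (swap p q) (swap u v) → p = u ∨ p = v ∨ q = u ∨ q = v :=
    fun n => by
      by_contra hn
      push Not at hn
      exact n (cm_of hn.1 hn.2.1 hn.2.2.1 hn.2.2.2)
  have f1 := k e1
  have f2 := k e2
  refine cm_of ?_ ?_ ?_ ?_ <;> rintro rfl <;> grind

theorem pick [Fintype α] (h : 9 ≤ Fintype.card α) (l : List α) (hl : l.length ≤ 7) :
    ∃ f g, f ≠ g ∧ f ∉ l ∧ g ∉ l := by
  have h1 := Finset.card_compl l.toFinset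
  have h2 := l.toFinset_card_le
  obtain ⟨f, hf, g, hg, n⟩ := Finset.one_lt_card.1 (show 1 < l.toFinsetᶜ.card by omega)
  exact ⟨f, g, n, by simpa using hf, by simpa using hg⟩

end P

variable {G : Type u} [Group G] {α : Type} [Fintype α] [DecidableEq α]

theorem odd_cj {o x : G} (ho : Odd (orderOf o)) (xx : x * x = 1) (e : o * x * (o * x) = 1) :
    ∃ c ∈ zpowers o, c * x * c⁻¹ = o * x := by
  obtain ⟨m, hm⟩ := ho
  have xi : x⁻¹ = x := inv_eq_of_mul_eq_one_right xx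
  have h1 : x * o⁻¹ * x⁻¹ = o := by
    have h0 : x * o * x = o⁻¹ := eq_inv_of_mul_eq_one_right (by rw [← e]; group)
    rw [← h0, xi, ← mul_assoc, ← mul_assoc, xx, one_mul, mul_assoc, xx, mul_one]
  refine ⟨o ^ (m + 1), pow_mem (mem_zpowers o) _, ?_⟩
  have h2 : x * (o ^ (m + 1))⁻¹ * x⁻¹ = o ^ (m + 1) := by rw [← inv_pow, ← conj_pow, h1]
  have h3 : o ^ (m + 1) * o ^ (m + 1) = o := by
    rw [← pow_add, show m + 1 + (m + 1) = 2 * m + 1 + 1 by ring, pow_succ, ← hm,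
      pow_orderOf_eq_one, one_mul]
  calc o ^ (m + 1) * x * (o ^ (m + 1))⁻¹ = o ^ (m + 1) * (x * (o ^ (m + 1))⁻¹ * x⁻¹) * x := by
        group
    _ = o * x := by rw [h2, h3]

/-- the symmetric group in the centraliser of the conjugate `d` of `t` -/
structure Fm (X : Subgroup G) (t d : G) (k : Perm α →* G) : Prop where
  inj : Function.Injective k
  cm : ∀ σ, Commute (k σ) d
  cj : ∀ τ, IsSwap τ → IsConj t (k τ)
  dm : ∀ τ, IsSwap τ → ∀ e, IsConj t e → Commute e d → Commute e (k τ) → e ≠ d →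
    ∃ τ', IsSwap τ' ∧ e = k τ'
  ev : ∀ σ, sign σ = 1 → k σ ∈ X

theorem Fm.conj {X : Subgroup G} {t d : G} {k : Perm α →* G} (h : Fm X t d k) (n : X.Normal)
    (g : G) : Fm X t (g * d * g⁻¹) ((MulAut.conj g).toMonoidHom.comp k) := by
  refine ⟨(MulAut.conj g).injective.comp h.inj, fun σ => (h.cm σ).map (MulAut.conj g),
    fun τ hτ => (h.cj τ hτ).trans (isConj_iff.2 ⟨g, rfl⟩), fun τ hτ e i c1 c2 ne => ?_,
    fun σ hσ => n.conj_mem _ (h.ev σ hσ) g⟩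
  obtain ⟨τ', s, k⟩ := h.dm τ hτ (g⁻¹ * e * g) (i.trans (isConj_iff.2 ⟨g⁻¹, by simp⟩))
    (by simpa [mul_assoc] using c1.map (MulAut.conj g⁻¹))
    (by simpa [mul_assoc] using c2.map (MulAut.conj g⁻¹)) fun k => ne (by rw [← k]; group)
  exact ⟨τ', s, by change e = g * _ * g⁻¹; rw [← k]; group⟩

theorem Fm.ci {X : Subgroup G} {t d : G} {k : Perm α →* G} (h : Fm X t d k) {σ τ : Perm α}
    (c : Commute (k σ) (k τ)) : Commute σ τ := h.inj (by rw [map_mul, map_mul, c.eq])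

theorem frame {ψ : alternatingGroup α →* G} {t : G} {j : Perm α →* G} {X : Subgroup G}
    (kit : Kit ψ t) (t2 : t * t = 1) (ci : CI ψ t j) (n : X.Normal) (f : Fm X t t j) {p q : G}
    (hp : IsConj t p) (hq : IsConj t q) (c : Commute q p) (ne : q ≠ p) :
    ∃ k : Perm α →* G, Fm X t p k ∧ ∃ τ, IsSwap τ ∧ q = k τ := by
  obtain ⟨g, rfl⟩ := isConj_iff.1 hp
  have i : IsConj t (g⁻¹ * q * g) := hq.trans (isConj_iff.2 ⟨g⁻¹, by simp⟩)
  have c' : Commute (g⁻¹ * q * g) t := by simpa [mul_assoc] using c.map (MulAut.conj g⁻¹)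
  have ne' : g⁻¹ * q * g ≠ t := fun k => ne (by rw [← k]; group)
  have eq : q = g * (g⁻¹ * q * g) * g⁻¹ := by group
  generalize g⁻¹ * q * g = e at i c' ne' eq
  have ee : e * e = 1 := by
    obtain ⟨h, rfl⟩ := isConj_iff.1 i
    rw [conj_mul, t2, mul_one, mul_inv_cancel]
  obtain ⟨ρ, ac⟩ := kit.act e c'
  have s := ci.p1 e ρ ⟨i, c', ne', ac⟩
  obtain ⟨O, odd, Ot, -, -, hO⟩ := kit.odd
  have oo : ∀ o ∈ O, Odd (orderOf o) := fun o ho => odd.of_dvd_nat (O.orderOf_dvd_natCard ho)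
  have xx : j ρ * j ρ = 1 := by
    obtain ⟨a, b, -, rfl⟩ := s
    rw [← map_mul, Equiv.swap_mul_self, map_one]
  have kK : e * (j ρ)⁻¹ ∈ KA ψ := H7.AA.Acts.KA (by simpa using ac.mul (ci.sec.ac ρ).inv)
  rcases hO _ kK (c'.mul_left (f.cm ρ).inv_left) with m | m
  · obtain ⟨c, hc, e1⟩ := odd_cj (oo _ m) xx (by rw [inv_mul_cancel_right, ee])
    have ct : c * t = t * c := mem_centralizer_singleton_iff.1 (Ot (zpowers_le.2 m hc))
    have := f.conj n (g * c)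
    rw [show g * c * t * (g * c)⁻¹ = g * t * g⁻¹ by rw [mul_assoc g, ct]; group] at this
    refine ⟨_, this, ρ, s, ?_⟩
    change q = g * c * j ρ * (g * c)⁻¹
    rw [eq, ← inv_mul_cancel_right e (j ρ), ← e1]
    group
  · exfalso
    have e0 : e * (j ρ)⁻¹ * t * (t * j ρ) = e := by
      rw [mul_assoc, ← mul_assoc t t, t2, one_mul, inv_mul_cancel_right]
    obtain ⟨c, -, e1⟩ := odd_cj (x := t * j ρ) (oo _ m) (by
      rw [mul_assoc, ← mul_assoc (j ρ), (f.cm ρ).eq, mul_assoc, xx, mul_one, t2])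
      (by rw [e0, ee])
    rw [e0] at e1
    obtain ⟨a, b, hab, rfl⟩ := s
    exact ci.i0 a b hab (i.trans (isConj_iff.2 ⟨c, e1⟩).symm)

theorem i4' : I4Stmt.{u} := by
  intro G _ _ α _ _ ψ t bs kit _ j ci _ a b hab X gl
  have h5 : 5 ≤ Fintype.card α := le_trans (by norm_num) bs.nine
  have nt : ∀ σ, j σ ≠ t := fun σ e => by
    have := (ci.sec.ac σ).eq_of h5 bs.inj (e ▸ bs.tK)
    exact bs.t1 (by rw [← e, this, map_one])
  have f : Fm X t t j := by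
    refine ⟨(injective_iff_map_eq_one j).2 fun σ e =>
      (ci.sec.ac σ).eq_of h5 bs.inj (e ▸ one_mem _), ci.sec.cm, ?_, ?_, fun σ hσ => ?_⟩
    · rintro _ ⟨a, b, h, rfl⟩
      exact ci.cj a b h
    · rintro _ ⟨a, b, h, rfl⟩ e i c1 c2 ne
      obtain ⟨c, d, h', k⟩ := (ci.dm a b h e i c1 c2).resolve_left ne
      exact ⟨_, ⟨c, d, h', rfl⟩, k⟩
    · rw [ci.sec.ev σ hσ]
      exact gl.le (H7.AA.ev_mem σ)
  have fr := fun p q => frame (p := p) (q := q) kit bs.t2 ci gl.nrm f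
  have sab : IsSwap (swap a b) := ⟨a, b, hab, rfl⟩
  let Out : Perm α → Prop := fun τ => IsSwap τ ∧ Commute τ (swap a b) ∧ τ ≠ swap a b
  have out : ∀ p q, p ≠ q → p ≠ a → p ≠ b → q ≠ a → q ≠ b → Out (swap p q) :=
    fun p q h h1 h2 h3 h4 => ⟨⟨p, q, h, rfl⟩, cm_of h1 h2 h3 h4, ne_of h h1 h2⟩
  have step : ∀ τ0 τ, Out τ0 → Out τ → Commute τ τ0 → τ ≠ τ0 → ∀ k : Perm α →* G,
      Fm X t (j τ0) k → ∀ β, IsSwap β → t = k β → ∀ ε, IsSwap ε → ¬ Commute (k ε) t →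
      ¬ Commute (k ε) (j (swap a b)) → Commute (k ε) (j τ) :=
    fun τ0 τ o0 o c ne k fk β sβ et ε sε n1 n2 => by
      obtain ⟨β', sβ', ed⟩ := fk.dm β sβ _ (f.cj _ sab) (o0.2.1.symm.map j) (et ▸ f.cm _)
        fun e => o0.2.2 (f.inj e).symm
      obtain ⟨γ, sγ, eg⟩ := fk.dm β sβ _ (f.cj _ o.1) (c.map j) (et ▸ f.cm _)
        fun e => ne (f.inj e)
      rw [eg]
      refine (key sβ sβ' sγ sε (fk.ci ?_) (fun e => nt (swap a b) ?_) (fk.ci ?_)
        (fun e => nt τ ?_) (fk.ci ?_) (fun e => o.2.2 (f.inj ?_)) (fun c => n1 ?_)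
        fun c => n2 ?_).map k
      · rw [← et, ← ed]; exact (f.cm _).symm
      · rw [ed, ← e, ← et]
      · rw [← et, ← eg]; exact f.cm _
      · rw [eg, e, ← et]
      · rw [← eg, ← ed]; exact o.2.1.map j
      · rw [eg, e, ← ed]
      · rw [et]; exact c.map k
      · rw [ed]; exact c.map k
  obtain ⟨c, c', hc, m1, m2⟩ := pick bs.nine [a, b] (by simp)
  simp only [List.mem_cons, List.not_mem_nil, or_false, not_or] at m1 m2
  have o1 := out c c' hc m1.1 m1.2 m2.1 m2.2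
  obtain ⟨k, fk, β, sβ, et⟩ := fr _ t (f.cj _ o1.1) (IsConj.refl t) (f.cm _).symm (nt _).symm
  have mid : ∀ ε, IsSwap ε → ¬ Commute (k ε) t → ¬ Commute (k ε) (j (swap a b)) →
      k ε ∈ C[LS ψ {a, b}ᶜ] := fun ε sε n1 n2 => by
    have le : symOn {a, b}ᶜ ≤ (centralizer {k ε}).comap j := by
      refine H78.symOn_le_of_swap (u := c) fun i hi hic => mem_centralizer_singleton_iff.2 ?_
      simp only [Finset.mem_compl, Finset.mem_insert, Finset.mem_singleton, not_or] at hi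
      by_cases e : i = c'
      · rw [e, Equiv.swap_comm]
        exact (fk.cm ε).symm
      obtain ⟨p, q, hpq, m3, m4⟩ := pick bs.nine [a, b, c, c', i] (by simp)
      simp only [List.mem_cons, List.not_mem_nil, or_false, not_or] at m3 m4
      have o4 := out p q hpq m3.1 m3.2.1 m4.1 m4.2.1
      have c41 := cm_of m3.2.2.1 m3.2.2.2.1 m4.2.2.1 m4.2.2.2.1
      have n41 := ne_of hpq m3.2.2.1 m3.2.2.2.1
      have c4 := step _ _ o1 o4 c41 n41 k fk β sβ et ε sε n1 n2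
      obtain ⟨k4, f4, β4, sβ4, et4⟩ := fr _ t (f.cj _ o4.1) (IsConj.refl t) (f.cm _).symm
        (nt _).symm
      obtain ⟨μ, sμ, eμ⟩ := f4.dm β4 sβ4 _ (f.cj _ o1.1) (c41.symm.map j) (et4 ▸ f.cm _)
        fun e => n41 (f.inj e).symm
      obtain ⟨ε', sε', eε⟩ := f4.dm μ sμ _ (fk.cj ε sε) c4 (eμ ▸ fk.cm ε)
        fun e => n1 (e ▸ f.cm _)
      rw [eε] at n1 n2 ⊢
      exact (step _ _ o4 (out i c hic hi.1 hi.2 m1.1 m1.2)
        (cm_of m3.2.2.2.2 m3.2.2.1 m4.2.2.2.2 m4.2.2.1).symm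
        (ne_of hpq m3.2.2.2.2 m3.2.2.1).symm k4 f4 β4 sβ4 et4 ε' sε' n1 n2).symm
    intro x hx
    obtain ⟨σ, hσ, rfl⟩ := mem_LS.1 hx
    rw [← ci.sec.ev σ (H78.mem_altOn.1 hσ).2]
    exact mem_centralizer_singleton_iff.1 (le hσ.1)
  have dA : j (swap a b) ∈ C[LS ψ {a, b}ᶜ] := fun x hx => by
    obtain ⟨σ, hσ, rfl⟩ := mem_LS.1 hx
    rw [← ci.sec.ev σ (H78.mem_altOn.1 hσ).2]
    exact ((H78.commute_of_mem_symOn disjoint_compl_left hσ.1
      (H78.swap_mem_symOn (by simp) (by simp))).map j).eq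
  obtain ⟨β', sβ', ed⟩ := fk.dm β sβ _ (f.cj _ sab) (o1.2.1.symm.map j) (et ▸ f.cm _)
    fun e => o1.2.2 (f.inj e).symm
  obtain ⟨x1, x2, h12, rfl⟩ := sβ
  obtain ⟨x3, x4, h34, rfl⟩ := sβ'
  obtain ⟨h13, h14, h23, h24⟩ := nd h12 h34 (fk.ci (by rw [← et, ← ed]; exact (f.cm _).symm))
    fun e => nt (swap a b) (by rw [ed, ← e, ← et])
  have mid' : ∀ p q, p ≠ q → ¬ Commute (swap p q) (swap x1 x2) →
      ¬ Commute (swap p q) (swap x3 x4) → k (swap p q) ∈ C[LS ψ {a, b}ᶜ] := fun p q h n1 n2 =>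
    mid _ ⟨p, q, h, rfl⟩ (fun c => n1 (fk.ci (et ▸ c))) fun c => n2 (fk.ci (ed ▸ c))
  have A13 := mid' x1 x3 h13 (fun c => h23 (eq_of h13 h12 c).symm) fun c => by
    rw [Equiv.swap_comm x1] at c
    exact h14 (eq_of h13.symm h34 c)
  have A24 := mid' x2 x4 h24 (fun c => by
    rw [Equiv.swap_comm x1] at c
    exact h14 (eq_of h24 h12.symm c).symm) fun c => by
    rw [Equiv.swap_comm x2, Equiv.swap_comm x3] at c
    exact h23 (eq_of h24.symm h34.symm c)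
  have A23 := mid' x2 x3 h23 (fun c => by
    rw [Equiv.swap_comm x1] at c
    exact h13 (eq_of h23 h12.symm c).symm) fun c => by
    rw [Equiv.swap_comm x2] at c
    exact h24 (eq_of h23.symm h34 c)
  have eu : t * j (swap a b) = k (d2 x1 x2 x3 x4) := by rw [d2, map_mul, ← et, ← ed]
  have y1 : c3 x2 x3 x4 x1 = x1 := H78.c3_apply_of_ne h12 h13 h14
  have y2 : c3 x2 x3 x4 x2 = x3 := H78.c3_apply_fst h23 h24
  have y3 : c3 x2 x3 x4 x3 = x4 := H78.c3_apply_snd h24 h34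
  have y4 : c3 x2 x3 x4 x4 = x2 := H78.c3_apply_thd _ _ _
  refine ⟨k (d2 x1 x3 x2 x4), k (c3 x2 x3 x4), fk.ev _ (H7.AA.sign_d2 h13 h24), ?_, ?_, ?_, ?_,
    ?_, ?_⟩
  · rw [d2, map_mul]
    exact mul_mem A13 A24
  · rw [← map_mul, d2, (cm_of h12 h14 h23.symm h34).symm.mul_mul_mul_comm, Equiv.swap_mul_self,
      Equiv.swap_mul_self, mul_one, map_one]
  · rw [ed, et, ← map_inv, ← map_mul, ← map_mul, ← Equiv.swap_apply_apply, H7.AA.d2_apply,
      H7.AA.d2_apply, Equiv.swap_apply_of_ne_of_ne h12 h14, Equiv.swap_apply_left,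
      Equiv.swap_apply_left, Equiv.swap_apply_of_ne_of_ne h14.symm h34.symm]
  · rw [H78.c3_def, map_mul, ← ed]
    exact centralizer_le_normalizer _ (mul_mem A23 dA)
  · rw [eu, ← map_inv, ← map_mul, ← map_mul, H7.AA.d2_conj, y1, y2, y3, y4, d2, d2,
      Equiv.swap_comm x4]
  · rw [eu, ← map_inv, ← map_mul, ← map_mul, ← map_mul, H7.AA.d2_conj, y1, y2, y3, y4,
      H7.AA.d2_mul (H7.AA.nodup4.2 ⟨h13, h12, h14, h23.symm, h34, h24⟩)]

theorem i4 (_ : I3Stmt.{u}) : I4Stmt.{u} := i4'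

end Cfsg.Agent.H31.AnI4
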