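import Cfsg.Agent.H21.DSDefs

/-!
# A Jordan block that occurs exactly once
-/

set_option autoImplicit false

namespace Cfsg.Agent.H31.DsJ

open Module Matrix Cfsg.Agent.H21.DS

universe u

section

variable {K V : Type*} [Field K] [AddCommGroup V] [Module K V] [FiniteDimensional K V]

theorem rank_step (f : Module.End K V) (a : ℕ) :
    finrank K (LinearMap.range (f ^ a)) = finrank K ↥(LinearMap.ker f ⊓ LinearMap.range (f ^ a)) +
      finrank K (LinearMap.range (f ^ (a + 1))) := by
  have h := LinearMap.finrank_range_add_finrank_ker (f.domRestrict (LinearMap.range (f ^ a)))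
  rw [LinearMap.range_domRestrict, LinearMap.ker_domRestrict, ← LinearMap.range_comp,
    ← Submodule.finrank_map_subtype_eq, Submodule.map_comap_subtype, inf_comm,
    ← Module.End.mul_eq_comp, ← pow_succ'] at h
  omega

theorem exists_step {f : Module.End K V} (hf : IsNilpotent f) (hn : (finrank K V : K) ≠ 0) :
    ∃ a : ℕ, ((a + 1 : ℕ) : K) ≠ 0 ∧ ∃ v ∈ LinearMap.ker f ⊓ LinearMap.range (f ^ a),
      v ∉ LinearMap.ker f ⊓ LinearMap.range (f ^ (a + 1)) := by
  by_contra hc
  push Not at hc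
  have key : ∀ a : ℕ, (finrank K V : K) = finrank K (LinearMap.range (f ^ a)) +
      a * finrank K ↥(LinearMap.ker f ⊓ LinearMap.range (f ^ a)) := by
    intro a
    induction a with
    | zero =>
      rw [pow_zero, Module.End.one_eq_id, LinearMap.range_id, finrank_top]
      simp
    | succ a ih =>
      rw [ih, rank_step f a]
      by_cases h : ((a + 1 : ℕ) : K) = 0
      · rw [h]
        push_cast at h ⊢
        linear_combination (finrank K ↥(LinearMap.ker f ⊓ LinearMap.range (f ^ a)) : K) * h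
      · have e : LinearMap.ker f ⊓ LinearMap.range (f ^ (a + 1)) =
            LinearMap.ker f ⊓ LinearMap.range (f ^ a) :=
          le_antisymm (inf_le_inf_left _ (by
            rw [pow_succ, Module.End.mul_eq_comp]; exact LinearMap.range_comp_le_range _ _)) (hc a h)
        rw [e]
        push_cast
        ring
  obtain ⟨N, hN⟩ := hf
  have := key N
  rw [hN, LinearMap.range_zero, inf_bot_eq, finrank_bot] at this
  exact hn (by simpa using this)

/-- The endomorphism attached to a functional and a vector. -/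
noncomputable def EE (f : Module.End K V) (a : ℕ) (l : V →ₗ[K] K) (w : V) : Module.End K V :=
  ∑ i ∈ Finset.range (a + 1), (l ∘ₗ (f ^ i)).smulRight ((f ^ (a - i)) w)

omit [FiniteDimensional K V] in
theorem pow_app (f : Module.End K V) (i j : ℕ) (x : V) : (f ^ i) ((f ^ j) x) = (f ^ (i + j)) x := by
  rw [pow_add]; rfl

omit [FiniteDimensional K V] in
theorem EE_comm {f : Module.End K V} {a : ℕ} {l : V →ₗ[K] K} {w : V}
    (hl : ∀ x, l ((f ^ (a + 1)) x) = 0) (hw : (f ^ (a + 1)) w = 0) : Commute (EE f a l w) f := by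
  refine LinearMap.ext fun x => ?_
  have e1 : ∀ i y, (f ^ i) (f y) = (f ^ (i + 1)) y := fun i y => by rw [pow_succ]; rfl
  have e2 : ∀ i y, f ((f ^ i) y) = (f ^ (i + 1)) y := fun i y => by rw [pow_succ']; rfl
  simp only [EE, Module.End.mul_apply, LinearMap.sum_apply, LinearMap.smulRight_apply,
    LinearMap.comp_apply, map_sum, map_smul, e1, e2]
  rw [Finset.sum_range_succ, Finset.sum_range_succ', hl, zero_smul, add_zero, Nat.sub_zero, hw,
    smul_zero, add_zero]
  exact Finset.sum_congr rfl fun i hi => by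
    rw [show a - (i + 1) + 1 = a - i by have := Finset.mem_range.1 hi; omega]

theorem EE_trace (f : Module.End K V) (a : ℕ) (l : V →ₗ[K] K) (w : V) :
    LinearMap.trace K V (EE f a l w) = (a + 1 : ℕ) * l ((f ^ a) w) := by
  rw [EE, map_sum, Finset.sum_congr rfl (g := fun _ => l ((f ^ a) w)), Finset.sum_const,
    Finset.card_range, nsmul_eq_mul]
  intro i hi
  rw [LinearMap.trace_smulRight, LinearMap.comp_apply, pow_app,
    show i + (a - i) = a by have := Finset.mem_range.1 hi; omega]

theorem EE_mul {f : Module.End K V} {a : ℕ} {l l' : V →ₗ[K] K} {w w' : V}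
    (hl : ∀ x, l ((f ^ (a + 1)) x) = 0) (hl' : ∀ x, l' ((f ^ (a + 1)) x) = 0)
    (h : l ((f ^ a) w') = 0) : LinearMap.trace K V (EE f a l w * EE f a l' w') = 0 := by
  rw [EE, EE, Finset.sum_mul_sum, map_sum]
  refine Finset.sum_eq_zero fun i hi => ?_
  rw [map_sum]
  refine Finset.sum_eq_zero fun j hj => ?_
  have hi' := Finset.mem_range.1 hi
  have hj' := Finset.mem_range.1 hj
  have e : (l ∘ₗ (f ^ i)).smulRight ((f ^ (a - i)) w) * (l' ∘ₗ (f ^ j)).smulRight ((f ^ (a - j)) w') =
      l ((f ^ (i + (a - j))) w') • (l' ∘ₗ (f ^ j)).smulRight ((f ^ (a - i)) w) :=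
    LinearMap.ext fun x => by
      simp only [Module.End.mul_apply, LinearMap.smulRight_apply, LinearMap.comp_apply, map_smul,
        LinearMap.smul_apply, pow_app, smul_smul]
      rw [mul_comm]
  rw [e, map_smul, LinearMap.trace_smulRight, LinearMap.comp_apply, pow_app, smul_eq_mul]
  rcases lt_trichotomy i j with hij | rfl | hij
  · rw [show j + (a - i) = a + 1 + (j - i - 1) by omega, ← pow_app f (a + 1), hl', mul_zero]
  · rw [show i + (a - i) = a by omega, h, zero_mul]
  · rw [show i + (a - j) = a + 1 + (i - j - 1) by omega, ← pow_app f (a + 1), hl, zero_mul]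

omit [FiniteDimensional K V] in
theorem exists_fun {S : Submodule K V} {v : V} (h : v ∉ S) :
    ∃ l : V →ₗ[K] K, l v ≠ 0 ∧ ∀ x ∈ S, l x = 0 := by
  obtain ⟨l, h1, h2⟩ := LinearMap.exists_extend_of_notMem (0 : S →ₗ[K] K) h 1
  exact ⟨l, by rw [h2]; exact one_ne_zero, fun x hx => LinearMap.congr_fun h1 ⟨x, hx⟩⟩

end

/-- JORD -/
theorem jord : JordStmt.{u} := by
  intro K _ n Θ hΘ hn hR
  set f : Module.End K (Fin n → K) := toLin' Θ with hf
  have hF : ∀ a, Fl Θ a = LinearMap.ker f ⊓ LinearMap.range (f ^ a) := fun a => by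
    rw [Fl, toLin'_pow]
  have hnil : IsNilpotent f := by
    obtain ⟨N, hN⟩ := hΘ
    exact ⟨N, by rw [hf, ← toLin'_pow, hN, map_zero]⟩
  obtain ⟨a, ha, v, hv, hv'⟩ := exists_step hnil (by rwa [finrank_fin_fun])
  refine ⟨a, v, by rwa [hF], by rwa [hF], fun v' h' => ?_⟩
  rw [hF] at h'
  by_contra hc
  push Not at hc
  have hc' : ∀ c : K, v' - c • v ∉ LinearMap.range (f ^ (a + 1)) := fun c e =>
    hc c (by rw [hF]; exact ⟨sub_mem h'.1 (Submodule.smul_mem _ _ hv.1), e⟩)
  obtain ⟨k1, w, rfl⟩ := hv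
  obtain ⟨k2, w', rfl⟩ := h'
  obtain ⟨l, l1, l2⟩ := exists_fun (S := LinearMap.range (f ^ (a + 1)) ⊔ K ∙ (f ^ a) w')
    (v := (f ^ a) w) fun e => by
      obtain ⟨r, hr, _, h, e⟩ := Submodule.mem_sup.1 e
      obtain ⟨c, rfl⟩ := Submodule.mem_span_singleton.1 h
      by_cases c0 : c = 0
      · rw [c0, zero_smul, add_zero] at e
        exact hv' ⟨k1, e ▸ hr⟩
      · refine hc' c⁻¹ ?_
        rw [← e, smul_add, smul_smul, inv_mul_cancel₀ c0, one_smul, sub_add_cancel_right]
        exact neg_mem (Submodule.smul_mem _ _ hr)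
  obtain ⟨l', l1', l2'⟩ := exists_fun (S := LinearMap.range (f ^ (a + 1))) (v := (f ^ a) w')
    (by simpa using hc' 0)
  have hl : ∀ x, l ((f ^ (a + 1)) x) = 0 := fun x => l2 _ (Submodule.mem_sup_left ⟨x, rfl⟩)
  have hl' : ∀ x, l' ((f ^ (a + 1)) x) = 0 := fun x => l2' _ ⟨x, rfl⟩
  have cm : ∀ e : Module.End K (Fin n → K), Commute e f → Commute (LinearMap.toMatrix' e) Θ :=
    fun e he => by
      have := congrArg LinearMap.toMatrix' he.eq
      rwa [LinearMap.toMatrix'_mul, LinearMap.toMatrix'_mul, hf, LinearMap.toMatrix'_toLin'] at this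
  have tr : ∀ e : Module.End K (Fin n → K),
      (LinearMap.toMatrix' e).trace = LinearMap.trace K _ e := fun e => by
    rw [← trace_toLin'_eq, toLin'_toMatrix']
  have := hR _ _ (cm _ (EE_comm hl (w := w) (by rw [pow_succ']; exact k1)))
    (cm _ (EE_comm hl' (w := w') (by rw [pow_succ']; exact k2)))
  rw [← LinearMap.toMatrix'_mul, tr, tr, tr, EE_trace, EE_trace, EE_mul hl hl'
    (l2 _ (Submodule.mem_sup_right (Submodule.mem_span_singleton_self _))), mul_zero] at this
  exact mul_ne_zero (mul_ne_zero ha l1) (mul_ne_zero ha l1') this.symm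

end Cfsg.Agent.H31.DsJ
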