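import Cfsg.Agent.H35.RfQ
import Cfsg.Agent.S1324
import Cfsg.Agent.H3.Cores

/-! The odd core of the quotient lies in the subgroup of order three. -/

set_option autoImplicit false

namespace Cfsg.Agent.H31.RfX3

open Cfsg Subgroup Cfsg.Agent.H18.Rf Cfsg.Agent.H35.RF

universe u

theorem four {X : Type u} [Group X] [Finite X] {B : Subgroup X} (h : 3 ≤ Nat.card B)
    (sq : ∀ b ∈ B, b * b = 1) : ∃ e ∈ B, ∃ e' ∈ B, e ≠ 1 ∧ e' ≠ 1 ∧ e * e' ≠ 1 := by
  classical
  have := Fintype.ofFinite B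
  rw [Nat.card_eq_fintype_card] at h
  obtain ⟨e, he⟩ := Fintype.exists_ne_of_one_lt_card (by omega) (1 : B)
  have : ({1, e} : Finset B).card < (Finset.univ : Finset B).card :=
    lt_of_le_of_lt Finset.card_le_two (by rw [Finset.card_univ]; omega)
  obtain ⟨f, -, hf⟩ := Finset.exists_mem_notMem_of_card_lt_card this
  simp only [Finset.mem_insert, Finset.mem_singleton, not_or] at hf
  refine ⟨e, e.2, f, f.2, fun k => he (Subtype.ext k), fun k => hf.1 (Subtype.ext k),
    fun k => hf.2 (Subtype.ext ?_)⟩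
  exact mul_left_cancel (k.trans (sq e e.2).symm)

theorem x3 : X3Stmt.{u} := by
  intro X A _ _ _ _ φ s W H E T ρ h
  have : Fact (Nat.Prime 2) := ⟨Nat.prime_two⟩
  set O := pPrimeCore 2 X
  have nO : O.Normal := pPrimeCore_normal 2 X
  have cO : ¬ 2 ∣ Nat.card O := (Nat.Prime.coprime_iff_not_dvd Nat.prime_two).1
    (H3.pPrimeCore_coprime 2 X).symm
  have tr : ∀ e ∈ E, e ∈ O → e = 1 := fun e he ho => by
    by_contra ne
    refine cO ?_
    rw [← orderOf_eq_prime (p := 2) (by rw [pow_two, h.sqE e he]) ne]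
    exact O.orderOf_dvd_natCard ho
  have cm : ∀ a ∈ E, ∀ b ∈ E, a * b = b * a := fun a ha b hb => by
    have i : ∀ c ∈ E, c⁻¹ = c := fun c hc => inv_eq_of_mul_eq_one_right (h.sqE c hc)
    rw [← i _ (E.mul_mem ha hb), mul_inv_rev, i a ha, i b hb]
  have el : IsElementaryAbelian 2 E :=
    ⟨⟨⟨fun a b => Subtype.ext (cm a a.2 b b.2)⟩⟩, fun a ha => by rw [pow_two, h.sqE a ha]⟩
  have OH : O ≤ H := by
    rw [S1324.result 2 E O el (by rw [h.cE]; norm_num) cO le_normalizer_of_normal]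
    refine iSup_le ?_
    rintro ⟨B, hB, hi⟩ x ⟨-, hx⟩
    have c8 : 3 ≤ Nat.card B := by
      have k := (B.subgroupOf E).card_mul_index
      rw [Nat.card_congr (subgroupOfEquivOfLe hB).toEquiv, h.cE] at k
      have hi' : (B.subgroupOf E).index ≤ 2 := hi
      nlinarith
    obtain ⟨e, he, f, hf, e1, f1, ef⟩ := four c8 fun b hb => h.sqE b (hB hb)
    have fx : ∀ b ∈ B, ∀ w ∈ W, φ b (φ x w) = φ x w := fun b hb w hw => by
      rw [← MulAut.mul_apply, ← map_mul, hx b hb, map_mul, MulAut.mul_apply, h.EW1 b (hB hb) w hw]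
    exact (h.nW x).2 fun w hw =>
      h.four e (hB he) f (hB hf) e1 f1 ef _ (fx e he w hw) (fx f hf w hw)
  rcases h.nH O OH le_normalizer_of_normal with k | k
  · intro x hx
    have n : zpowers ρ ≤ normalizer (E : Set X) := (zpowers_le.2 h.ρH).trans h.nE
    have hx' := k hx
    rw [← SetLike.mem_coe, coe_mul_of_right_le_normalizer_left _ _ n] at hx'
    obtain ⟨e, he, r, hr, rfl⟩ := hx'
    have c : Commute e r := by
      obtain ⟨j, rfl⟩ := hr
      exact Commute.zpow_right (mem_centralizer_singleton_iff.1 (h.Eρ he)) j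
    have r3 : r ^ 3 = 1 := by
      obtain ⟨j, rfl⟩ := hr
      rw [← h.ρ3, ← zpow_natCast, ← zpow_mul, mul_comm, zpow_mul, zpow_natCast,
        pow_orderOf_eq_one, one_zpow]
    have e1 : e = 1 := tr e he (by
      have := O.pow_mem hx 3
      rwa [c.mul_pow, r3, mul_one, pow_succ, pow_two, h.sqE e he, one_mul] at this)
    subst e1
    simpa using hr
  · obtain ⟨e, he, e1, -⟩ := h.zT
    exact absurd (tr e he (k ⟨h.TH (h.ET he), h.Eρ he⟩)) e1

end Cfsg.Agent.H31.RfX3
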